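import Mathlib

/-!
An automorphism `s` with `s ^ q = 1` which commutes with its conjugates under a quadratic
unipotent automorphism `1 + n` commutes with `n`, if `2` and `q` act injectively.
-/

set_option autoImplicit false

namespace CfsgLib.AbelianByClassTwo

theorem commute_of_quadratic {R : Type*} [Ring R] (s n : R) {q : ℕ} (hq : 0 < q)
    (hnn : n * n = 0) (hsq : s ^ q = 1)
    (h1 : Commute s ((1 + n) * s * (1 - n))) (h2 : Commute s ((1 - n) * s * (1 + n)))
    (h2t : ∀ x : R, x + x = 0 → x = 0) (hqt : ∀ x : R, q • x = 0 → x = 0) :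
    Commute n s := by
  have e1 : (1 + n) * s * (1 - n) = s + (n * s - s * n) - n * s * n := by noncomm_ring
  have e2 : (1 - n) * s * (1 + n) = s - (n * s - s * n) - n * s * n := by noncomm_ring
  rw [e1] at h1
  rw [e2] at h2
  set d := n * s - s * n with hd
  have hsd : s * d = d * s := by
    refine sub_eq_zero.mp (h2t _ ?_)
    have a1 := sub_eq_zero.mpr h1.eq
    have a2 := sub_eq_zero.mpr h2.eq
    calc (s * d - d * s) + (s * d - d * s)
        = (s * (s + d - n * s * n) - (s + d - n * s * n) * s)
          - (s * (s - d - n * s * n) - (s - d - n * s * n) * s) := by noncomm_ring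
      _ = 0 := by rw [a1, a2, sub_zero]
  have key : ∀ k : ℕ, n * s ^ k * s - s ^ k * s * n = (k + 1) • (d * s ^ k) := by
    intro k
    induction k with
    | zero => simp [hd]
    | succ k ih =>
      have hc : s ^ (k + 1) * d = d * s ^ (k + 1) :=
        ((show Commute s d from hsd).pow_left (k + 1)).eq
      calc n * s ^ (k + 1) * s - s ^ (k + 1) * s * n
          = (n * s ^ k * s - s ^ k * s * n) * s + s ^ (k + 1) * (n * s - s * n) := by
            rw [pow_succ]; noncomm_ring
        _ = (k + 1 + 1) • (d * s ^ (k + 1)) := by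
            rw [ih, ← hd, hc, succ_nsmul (d * s ^ (k + 1)) (k + 1), smul_mul_assoc, mul_assoc,
              ← pow_succ]
  obtain ⟨k, rfl⟩ : ∃ k, q = k + 1 := ⟨q - 1, by omega⟩
  have h := key k
  rw [mul_assoc, ← pow_succ, hsq, mul_one, one_mul, sub_self] at h
  have hz : d * s ^ k = 0 := hqt _ h.symm
  have hd0 : d = 0 := by
    calc d = d * s ^ k * s := by rw [mul_assoc, ← pow_succ, hsq, mul_one]
      _ = 0 := by rw [hz, zero_mul]
  exact sub_eq_zero.mp hd0

end CfsgLib.AbelianByClassTwo
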